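import Cfsg.Agent.Lib.Compute.Mult.He.DefsU

/-!
# The kernel checks of the labels of the table on `4116` points
-/

set_option autoImplicit false
set_option maxRecDepth 100000

namespace Cfsg.Agent.Lib.Compute.Mult.He

open Cfsg.Agent.Lib.Compute.PermCert Cfsg.Agent.Lib.Compute.PeelCert Cfsg.Agent.Lib.Compute.CoverCert
open Cfsg.Agent.Lib.Compute.SchurLin (flp expV unitV)

theorem varR0 : allB (fun r => varOK (Nat.add 0 r)) 2048 = true := by decide +kernel
theorem varR1 : allB (fun r => varOK (Nat.add 2048 r)) 2048 = true := by decide +kernel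
theorem varR2 : allB (fun r => varOK (Nat.add 4096 r)) 2048 = true := by decide +kernel
theorem varR3 : allB (fun r => varOK (Nat.add 6144 r)) 2048 = true := by decide +kernel
theorem varR4 : allB (fun r => varOK (Nat.add 8192 r)) 2048 = true := by decide +kernel
theorem varR5 : allB (fun r => varOK (Nat.add 10240 r)) 2048 = true := by decide +kernel
theorem varR6 : allB (fun r => varOK (Nat.add 12288 r)) 2048 = true := by decide +kernel
theorem varR7 : allB (fun r => varOK (Nat.add 14336 r)) 2048 = true := by decide +kernel
theorem varR8 : allB (fun r => varOK (Nat.add 16384 r)) 2048 = true := by decide +kernel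
theorem varR9 : allB (fun r => varOK (Nat.add 18432 r)) 2048 = true := by decide +kernel
theorem varR10 : allB (fun r => varOK (Nat.add 20480 r)) 2048 = true := by decide +kernel
theorem varR11 : allB (fun r => varOK (Nat.add 22528 r)) 2048 = true := by decide +kernel
theorem varR12 : allB (fun r => varOK (Nat.add 24576 r)) 2048 = true := by decide +kernel
theorem varR13 : allB (fun r => varOK (Nat.add 26624 r)) 2048 = true := by decide +kernel
theorem varR14 : allB (fun r => varOK (Nat.add 28672 r)) 140 = true := by decide +kernel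

theorem varR_all : allB varOK 28812 = true := by
  rw [allB_iff]
  intro u hu
  by_cases h0 : u < 2048
  · exact Cfsg.Agent.Lib.Compute.Mult.blk varR0 (by omega) (by omega)
  by_cases h1 : u < 4096
  · exact Cfsg.Agent.Lib.Compute.Mult.blk varR1 (by omega) (by omega)
  by_cases h2 : u < 6144
  · exact Cfsg.Agent.Lib.Compute.Mult.blk varR2 (by omega) (by omega)
  by_cases h3 : u < 8192
  · exact Cfsg.Agent.Lib.Compute.Mult.blk varR3 (by omega) (by omega)
  by_cases h4 : u < 10240
  · exact Cfsg.Agent.Lib.Compute.Mult.blk varR4 (by omega) (by omega)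
  by_cases h5 : u < 12288
  · exact Cfsg.Agent.Lib.Compute.Mult.blk varR5 (by omega) (by omega)
  by_cases h6 : u < 14336
  · exact Cfsg.Agent.Lib.Compute.Mult.blk varR6 (by omega) (by omega)
  by_cases h7 : u < 16384
  · exact Cfsg.Agent.Lib.Compute.Mult.blk varR7 (by omega) (by omega)
  by_cases h8 : u < 18432
  · exact Cfsg.Agent.Lib.Compute.Mult.blk varR8 (by omega) (by omega)
  by_cases h9 : u < 20480
  · exact Cfsg.Agent.Lib.Compute.Mult.blk varR9 (by omega) (by omega)
  by_cases h10 : u < 22528
  · exact Cfsg.Agent.Lib.Compute.Mult.blk varR10 (by omega) (by omega)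
  by_cases h11 : u < 24576
  · exact Cfsg.Agent.Lib.Compute.Mult.blk varR11 (by omega) (by omega)
  by_cases h12 : u < 26624
  · exact Cfsg.Agent.Lib.Compute.Mult.blk varR12 (by omega) (by omega)
  by_cases h13 : u < 28672
  · exact Cfsg.Agent.Lib.Compute.Mult.blk varR13 (by omega) (by omega)
  exact Cfsg.Agent.Lib.Compute.Mult.blk varR14 (by omega) (by omega)

end Cfsg.Agent.Lib.Compute.Mult.He
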